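import Mathlib
import Cfsg.Agent.Lib.Helper51.TI3.Defs

/-!
# S3117 package GH1b (helper20): the count `N₀ · |T| ≤ #{x | x² = 1}` and `|T| ≥ 2`
for the quadratic data of a critical group.
-/

set_option autoImplicit false

universe u

namespace Cfsg.Agent.Lib.Helper20.TI3

open Cfsg.Agent.Lib.Helper51.TI3

theorem lemCritCount : LemCritCount.{u} := by
  intro X _ _ W T _ _ _ _ D hX hnt hcount
  have : Fact (Nat.Prime 2) := ⟨Nat.prime_two⟩
  have hex : ∃ f : ↥(Subgroup.center X) →* ↥(Subgroup.center X),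
      ∀ z : ↥(Subgroup.center X), f z = z ^ 2 := by
    refine ⟨MonoidHom.mk' (fun z => z ^ 2) ?_, fun z => rfl⟩
    intro a b
    apply Subtype.ext
    have hc : (a : X) * (b : X) = (b : X) * (a : X) := Subgroup.mem_center_iff.mp b.2 (a : X)
    show ((a : X) * (b : X)) ^ 2 = (a : X) ^ 2 * (b : X) ^ 2
    calc ((a : X) * (b : X)) ^ 2 = (a : X) * ((b : X) * (a : X)) * (b : X) := by
          simp only [pow_two, mul_assoc]
      _ = (a : X) * ((a : X) * (b : X)) * (b : X) := by rw [hc]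
      _ = (a : X) ^ 2 * (b : X) ^ 2 := by simp only [pow_two, mul_assoc]
  obtain ⟨sqZ, hsq_apply⟩ := hex
  -- ker τ = range of squaring
  have hker : D.τ.ker = sqZ.range := by
    ext z
    rw [MonoidHom.mem_ker, D.τ_ker, MonoidHom.mem_range]
    constructor
    · rintro ⟨y, rfl⟩; exact ⟨y, hsq_apply y⟩
    · rintro ⟨y, rfl⟩; exact ⟨y, hsq_apply y⟩
  have h1 : Nat.card ↥D.τ.ker * Nat.card T = Nat.card ↥(Subgroup.center X) := by
    have h := Subgroup.card_mul_index D.τ.ker
    rw [Subgroup.index_ker, MonoidHom.range_eq_top.mpr D.τ_surj, Subgroup.card_top] at h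
    exact h
  have h2 : Nat.card ↥sqZ.ker * Nat.card ↥sqZ.range = Nat.card ↥(Subgroup.center X) := by
    have h := Subgroup.card_mul_index sqZ.ker
    rw [Subgroup.index_ker] at h
    exact h
  have hT : Nat.card T = Nat.card ↥sqZ.ker := by
    rw [hker] at h1
    have hpos : 0 < Nat.card ↥sqZ.range := Nat.card_pos
    have h3 : Nat.card ↥sqZ.range * Nat.card T = Nat.card ↥sqZ.range * Nat.card ↥sqZ.ker := by
      rw [h1, ← h2, mul_comm]
    exact Nat.eq_of_mul_eq_mul_left hpos h3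
  -- the centre is non-trivial, so it has an involution
  have hT2 : 2 ≤ Nat.card T := by
    rw [hT]
    have := hX.center_nontrivial
    have hZp : IsPGroup 2 ↥(Subgroup.center X) := hX.to_subgroup _
    obtain ⟨n, hn⟩ := hZp.exists_card_eq
    have hn0 : n ≠ 0 := by
      rintro rfl
      have h1lt : 1 < Nat.card ↥(Subgroup.center X) := Finite.one_lt_card
      rw [hn] at h1lt
      simp at h1lt
    have hdvd : 2 ∣ Nat.card ↥(Subgroup.center X) := by
      rw [hn]; exact dvd_pow_self 2 hn0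
    obtain ⟨z, hz⟩ := exists_prime_orderOf_dvd_card' 2 hdvd
    have hzk : z ∈ sqZ.ker := by
      rw [MonoidHom.mem_ker, hsq_apply, ← hz, pow_orderOf_eq_one]
    have hz1 : z ≠ 1 := by
      rintro rfl
      rw [orderOf_one] at hz
      omega
    have : Nontrivial ↥sqZ.ker := ⟨⟨⟨z, hzk⟩, 1, fun h => hz1 (congrArg Subtype.val h)⟩⟩
    exact Finite.one_lt_card
  refine ⟨hT2, ?_⟩
  -- squares are central
  have hx2 : ∀ x : X, x ^ 2 ∈ Subgroup.center X := by
    intro x
    rw [← D.π_ker, map_pow, pow_two, D.Q.hW]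
  -- lift zeros of `sq` to involutions
  have hlift : ∀ w : W, D.Q.sq w = 1 → ∃ x : X, x ^ 2 = 1 ∧ D.π x = w := by
    intro w hw
    obtain ⟨x, rfl⟩ := D.π_surj w
    rw [D.sq_π x (hx2 x), D.τ_ker] at hw
    obtain ⟨y, hy⟩ := hw
    have hyc : ∀ g : X, g * (y : X) = (y : X) * g := fun g => Subgroup.mem_center_iff.mp y.2 g
    have hy' : x ^ 2 = (y : X) ^ 2 := by
      have h := congrArg (Subtype.val : ↥(Subgroup.center X) → X) hy
      rw [Subgroup.coe_pow] at h
      exact h
    refine ⟨x * (y : X)⁻¹, ?_, ?_⟩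
    · have hyc' : x * (y : X)⁻¹ = (y : X)⁻¹ * x := by
        have := hyc x
        calc x * (y : X)⁻¹ = (y : X)⁻¹ * ((y : X) * x) * (y : X)⁻¹ := by group
          _ = (y : X)⁻¹ * (x * (y : X)) * (y : X)⁻¹ := by rw [this]
          _ = (y : X)⁻¹ * x := by group
      calc (x * (y : X)⁻¹) ^ 2 = x * (y : X)⁻¹ * (x * (y : X)⁻¹) := pow_two _
        _ = x * (y : X)⁻¹ * ((y : X)⁻¹ * x) := by rw [← hyc']
        _ = x * ((y : X) ^ 2)⁻¹ * x := by group
        _ = x * (x ^ 2)⁻¹ * x := by rw [hy']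
        _ = 1 := by group
    · rw [map_mul, map_inv, (D.π_ker (y : X)).mpr y.2, inv_one, mul_one]
  choose! xw hxw using hlift
  have hinj : Nat.card ({w : W // D.Q.sq w = 1} × ↥sqZ.ker) ≤ Nat.card {x : X // x ^ 2 = 1} := by
    have hval : ∀ p : {w : W // D.Q.sq w = 1} × ↥sqZ.ker,
        (xw p.1.1 * ((p.2 : ↥(Subgroup.center X)) : X)) ^ 2 = 1 := by
      intro p
      obtain ⟨⟨w, hw⟩, ⟨z, hz⟩⟩ := p
      have hzc : ∀ g : X, g * (z : X) = (z : X) * g := fun g => Subgroup.mem_center_iff.mp z.2 g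
      have hz2 : (z : X) ^ 2 = 1 := by
        rw [MonoidHom.mem_ker, hsq_apply] at hz
        have h := congrArg (Subtype.val : ↥(Subgroup.center X) → X) hz
        rw [Subgroup.coe_pow, Subgroup.coe_one] at h
        exact h
      have hx1 := (hxw w hw).1
      show (xw w * (z : X)) ^ 2 = 1
      have e : (z : X) * xw w = xw w * (z : X) := (hzc (xw w)).symm
      calc (xw w * (z : X)) ^ 2 = xw w * ((z : X) * xw w) * (z : X) := by
            simp only [pow_two, mul_assoc]
        _ = xw w * (xw w * (z : X)) * (z : X) := by rw [e]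
        _ = (xw w) ^ 2 * (z : X) ^ 2 := by simp only [pow_two, mul_assoc]
        _ = 1 := by rw [hx1, hz2, mul_one]
    apply Nat.card_le_card_of_injective (fun p : {w : W // D.Q.sq w = 1} × ↥sqZ.ker =>
      (⟨xw p.1.1 * ((p.2 : ↥(Subgroup.center X)) : X), hval p⟩ : {x : X // x ^ 2 = 1}))
    intro p q hpq
    obtain ⟨⟨w, hw⟩, ⟨z, hz⟩⟩ := p
    obtain ⟨⟨w', hw'⟩, ⟨z', hz'⟩⟩ := q
    have h : xw w * (z : X) = xw w' * (z' : X) :=
      congrArg (fun t : {x : X // x ^ 2 = 1} => (t : X)) hpq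
    have hπ := congrArg D.π h
    rw [map_mul, map_mul, (D.π_ker (z : X)).mpr z.2, (D.π_ker (z' : X)).mpr z'.2, mul_one,
      mul_one, (hxw w hw).2, (hxw w' hw').2] at hπ
    subst hπ
    have hzz : (z : X) = (z' : X) := mul_left_cancel h
    have hzz' : z = z' := Subtype.ext hzz
    subst hzz'
    rfl
  rw [Nat.card_prod] at hinj
  rw [hT]
  exact le_trans hinj hcount

end Cfsg.Agent.Lib.Helper20.TI3
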